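import Cfsg.Agent.H35.HT.Idx

/-!
# `v_p |F.iso| = 2 a` for rank `2 c`, `p ∣ q ^ c + 1` (helper79)
-/

set_option autoImplicit false
set_option linter.unusedVariables false

namespace Cfsg.Agent.H79.HT

open Cfsg.Agent.H35.HT.Idx Cfsg.Agent.H35.HT.Val Cfsg.Agent.H477.HC Cfsg.Agent.H477.HC.CForm Module

universe u

variable (K : Type u) [Field K] [Finite K] {p a c : ℕ} [hp : Fact p.Prime]

private theorem fin (hp2 : p ≠ 2) {N w : ℕ} (hw : w = 2) (ha : padicValNat p (Nat.card K ^ c + 1) = a)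
    (h : (padicValNat p N : ℤ) = (w : ℤ) * B p (Nat.card K) c + (padicValNat p w.factorial : ℤ)) :
    N.factorization p = 2 * a := by
  subst hw
  rw [Nat.factorial_two, padicValNat_primes_two hp2, B_nat, ha] at h
  rw [Nat.factorization_def _ hp.out]
  exact_mod_cast h
where
  padicValNat_primes_two (hp2 : p ≠ 2) : padicValNat p 2 = 0 := by
    refine padicValNat.eq_zero_of_not_dvd fun h => hp2 ?_
    exact (Nat.prime_dvd_prime_iff_eq hp.out Nat.prime_two).1 h

theorem fac_sp (hp2 : p ≠ 2) (hc0 : 0 < c)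
    (ho : orderOf ((Nat.card K : ℕ) : ZMod p) = 2 * c) (ha : padicValNat p (Nat.card K ^ c + 1) = a) :
    (Nat.card (spF K (2 * c)).iso).factorization p = 2 * a := by
  refine fin K hp2 ?_ ha (v_iso_sp K ho hc0 (2 * c))
  unfold wSp
  exact Nat.mul_div_cancel _ hc0

theorem fac_plus (hp2 : p ≠ 2) (hc0 : 0 < c)
    (ho : orderOf ((Nat.card K : ℕ) : ZMod p) = 2 * c) (ha : padicValNat p (Nat.card K ^ c + 1) = a) :
    (Nat.card (plusF K (2 * c)).iso).factorization p = 2 * a := by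
  refine fin K hp2 ?_ ha (v_iso_plus K ho hc0 (2 * c))
  unfold wPlus
  rw [Nat.mul_div_cancel _ hc0, if_neg (fun h => by have := h.2; exact absurd this (by decide))]

theorem fac_odd (h2 : (2 : K) ≠ 0) (hp2 : p ≠ 2) (hc0 : 0 < c)
    (ho : orderOf ((Nat.card K : ℕ) : ZMod p) = 2 * c) (ha : padicValNat p (Nat.card K ^ c + 1) = a) :
    (Nat.card (oddF K (2 * c) h2).iso).factorization p = 2 * a := by
  have hodd : Odd (Nat.card K) := by
    classical
    rw [← Nat.not_even_iff_odd]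
    intro he
    apply h2
    have : Fintype K := Fintype.ofFinite K
    have h3 : ((Nat.card K : ℕ) : K) = 0 := by rw [Nat.card_eq_fintype_card]; exact Nat.cast_card_eq_zero K
    obtain ⟨r, hr⟩ := CharP.exists K
    have hrp : r.Prime := (CharP.char_is_prime_or_zero K r).resolve_right (CharP.char_ne_zero_of_finite K r)
    have : Fact r.Prime := ⟨hrp⟩
    obtain ⟨n, -, hn⟩ := FiniteField.card K r
    rw [Nat.card_eq_fintype_card, hn] at he
    have h4 : (2 : ℕ) ∣ r := Nat.prime_two.dvd_of_dvd_pow he.two_dvd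
    have h5 : 2 = r := (Nat.prime_dvd_prime_iff_eq Nat.prime_two hrp).1 h4
    have := CharP.cast_eq_zero K r
    rw [← h5] at this
    exact_mod_cast this
  refine fin K hp2 ?_ ha (v_iso_odd K h2 hodd ho hc0 (2 * c))
  unfold wSp
  exact Nat.mul_div_cancel _ hc0

theorem fac_minus {α β : K}
    (hab : ∀ z₁ z₂ : K, z₁ ^ 2 + α * z₁ * z₂ + β * z₂ ^ 2 = 0 → z₁ = 0 ∧ z₂ = 0) (hp2 : p ≠ 2) (hc1 : 1 < c)
    (ho : orderOf ((Nat.card K : ℕ) : ZMod p) = 2 * c) (ha : padicValNat p (Nat.card K ^ c + 1) = a) :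
    (Nat.card (minusF K (2 * c) α β hab).iso).factorization p = 2 * a := by
  refine fin K hp2 ?_ ha (v_iso_minus K ho (by omega) (2 * c) α β hab)
  unfold wMinus
  have h1 : (2 * c + 1) / c = 2 := by
    rw [Nat.div_eq_iff (by omega)]
    omega
  rw [h1, if_neg]
  rintro ⟨h, -⟩
  rw [Nat.dvd_add_right (Dvd.intro_left 2 rfl), Nat.dvd_one] at h
  omega

end Cfsg.Agent.H79.HT
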